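import Cfsg.Agent.H6.HNR.M.D0

set_option autoImplicit false
set_option maxRecDepth 100000
set_option Elab.async false

namespace Cfsg.H6.HNR.M

theorem d8 : HN.M.P.weq code 9 [4,2,4,1,4,2,3,1,2,3,1,2,3,1,3,3] [8] = true := by
  decide +kernel

theorem d9 : HN.M.P.weq code 10 [4,4,2,4,1,2,4,1,2,4,1,3,2,3,1,3] [9] = true := by
  decide +kernel

theorem d10 : HN.M.P.weq code 11 [2,4,1,3,3,3,2,3,1,1,1] [10] = true := by
  decide +kernel

theorem d11 : HN.M.P.weq code 12 [10,7,5,4,4,10,3,3,5,6] [11] = true := by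
  decide +kernel

theorem d12 : HN.M.P.weq code 13 [11,11] [12] = true := by
  decide +kernel

theorem d13 : HN.M.P.weq code 14 [12,12] [13] = true := by
  decide +kernel

theorem d14 : HN.M.P.weq code 15 [1,1] [14] = true := by
  decide +kernel

theorem d15 : HN.M.P.weq code 16 [5,8,13,5,8,13,5,8,13] [15] = true := by
  decide +kernel

theorem d16 : HN.M.P.weq code 17 [4,2,3,1,4,4,2,4,1,2,4,1,4,4,2,3,1,4] [16] = true := by
  decide +kernel

theorem d17 : HN.M.P.weq code 18 [4,2,4,1,3,3,3,2,3,1,2,3,1,2,3,1,3,3,2,4,1] [17] = true := by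
  decide +kernel

theorem d18 : HN.M.P.weq code 19 [2,4,1,4,2,4,1,2,4,1,3,3,2,3,1,2,3,1,3,3,2,4,1,3] [18] = true := by
  decide +kernel

theorem d19 : HN.M.P.weq code 20 [3,2,4,1,2,4,1,3,3,2,4,1,2,4,1,4,4,2,4,1,4,2,4,1,2,4,1,4] [19] = true := by
  decide +kernel

theorem d20 : HN.M.P.weq code 21 [2,3,1,3,2,4,1,4,4,4,2,3,1,2,3,1,4,4] [20] = true := by
  decide +kernel


end Cfsg.H6.HNR.M
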