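import Cfsg.Agent.H6.HNR.M.D0

set_option autoImplicit false
set_option maxRecDepth 100000
set_option Elab.async false

namespace Cfsg.H6.HNR.M

theorem d21 : HN.M.P.weq code 22 [4,2,3,1,5,4,5,2,4,1,2,4,1,4,4,2,4,1,2,4,1,5,4,5,2,4,1,3,3,2,4,1] [21] = true := by
  decide +kernel

theorem d22 : HN.M.P.weq code 23 [15,16,15] [22] = true := by
  decide +kernel

theorem d23 : HN.M.P.weq code 24 [14,22,14] [23] = true := by
  decide +kernel

theorem d24 : HN.M.P.weq code 25 [5,22,5] [24] = true := by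
  decide +kernel

theorem d25 : HN.M.P.weq code 26 [5,23,5] [25] = true := by
  decide +kernel

theorem r0 : mq (subst sN [1,2,1,4,1,3,1,2,1,4,1,3]) [] = true := by
  decide +kernel

theorem r1 : mq (subst sN [1,2,4,1,4,3,1,2,4,1,4,3]) [] = true := by
  decide +kernel

theorem r2 : mq (subst sN [1,2,4,2,4,2,4,1,2,4,2,4,2,4]) [] = true := by
  decide +kernel

theorem r3 : mq (subst sN [1,4,2,2,2,2,4,1,4,2,2,2,2,4]) [] = true := by
  decide +kernel

theorem r4 : mq (subst sN [1,2,2,1,3,4,1,4,1,2,2,1,3,4,1,4]) [] = true := by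
  decide +kernel

theorem r5 : mq (subst sN [1,2,2,4,1,2,2,4,1,2,2,4,1,2,2,4]) [] = true := by
  decide +kernel

theorem r6 : mq (subst sN [1,3,3,3,4,2,2,4,1,3,3,3,4,2,2,4]) [] = true := by
  decide +kernel

theorem r7 : mq (subst sN [1,2,1,3,4,3,4,3,3,1,2,1,3,4,3,4,3,3]) [] = true := by
  decide +kernel

theorem r8 : mq (subst sN [1,2,4,2,4,3,3,3,4,1,2,4,2,4,3,3,3,4]) [10] = true := by
  decide +kernel


end Cfsg.H6.HNR.M
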