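import Cfsg.Agent.H6.HNR.M.D0

set_option autoImplicit false
set_option maxRecDepth 100000
set_option Elab.async false

namespace Cfsg.H6.HNR.M

theorem r9 : mq (subst sN [1,3,4,1,3,4,1,3,4,1,3,4,1,3,4,1,3,4]) [10] = true := by
  decide +kernel

theorem r10 : mq (subst sN [1,3,4,3,4,3,4,1,4,1,3,4,3,4,3,4,1,4]) [] = true := by
  decide +kernel

theorem r11 : mq (subst sN [1,2,1,3,3,4,2,1,2,1,3,3,4,2,1,2,1,3,3,4,2]) [] = true := by
  decide +kernel

theorem r12 : mq (subst sN [1,2,2,1,3,4,1,2,2,1,3,4,1,2,2,1,3,4,1,2,2,1,3,4]) [] = true := by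
  decide +kernel

theorem r13 : mq (subst sN [1,2,2,2,4,1,3,4,1,2,2,2,4,1,3,4,1,2,2,2,4,1,3,4]) [] = true := by
  decide +kernel

theorem r14 : mq (subst sN [1,2,1,2,2,1,2,2,4,1,2,1,2,2,1,2,2,4,1,2,1,2,2,1,2,2,4]) [10] = true := by
  decide +kernel

theorem cc : mq [13,13] [] = true := by
  decide +kernel

theorem cz : mq [13,10] [10,13] = true := by
  decide +kernel

theorem c1 : mq [14,9,13,9,5,13,9,13] [9,13,9,5,13,9,13,14,10] = true := by
  decide +kernel

theorem c2 : mq [14,13] [13,4,5,2,3,1,4,2,4,1,5,3,5,3,1] = true := by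
  decide +kernel


end Cfsg.H6.HNR.M
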