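import Cfsg.Agent.H6.HNR.M.D0

set_option autoImplicit false
set_option maxRecDepth 100000
set_option Elab.async false

namespace Cfsg.H6.HNR.M

theorem c3 : mq [2,4,1,3,3,5,2,3,1,2,3,1,2,3,1,5,3,2,3,1,8,13] [8,13,4,2,4,1,4,2,4,1,5,2,4,1,3,3,3,2,3,1,4,2,4,1,4,2,4,1] = true := by
  decide +kernel

theorem c4 : mq [10,12] [12,13,10] = true := by
  decide +kernel

theorem c5 : mq [13,8,13,5,9,9,9,13,8] [8,13,5,9,9,9,13,8,13,10] = true := by
  decide +kernel

theorem o5 : mq (subst sN ([1,2,4,2,4,3,3,3,4] ++ [1,2,4,2,4,3,3,3,4])) [10] = true := by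
  decide +kernel

theorem o6 : mq (subst sN ([1,3,4,1,3,4,1,3,4] ++ [1,3,4,1,3,4,1,3,4])) [10] = true := by
  decide +kernel

theorem x0 : (mq [16, 16, 16] [] && (List.range 0).all fun j => mq [16, 16 + j, 16, 16 + j] []) = true := by
  decide +kernel

theorem x1 : (mq [17, 17, 17] [] && (List.range 1).all fun j => mq [17, 16 + j, 17, 16 + j] []) = true := by
  decide +kernel

theorem x2 : (mq [18, 18, 18] [] && (List.range 2).all fun j => mq [18, 16 + j, 18, 16 + j] []) = true := by
  decide +kernel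

theorem x3 : (mq [19, 19, 19] [] && (List.range 3).all fun j => mq [19, 16 + j, 19, 16 + j] []) = true := by
  decide +kernel

theorem x4 : (mq [20, 20, 20] [] && (List.range 4).all fun j => mq [20, 16 + j, 20, 16 + j] []) = true := by
  decide +kernel

theorem x5 : (mq [21, 21, 21] [] && (List.range 5).all fun j => mq [21, 16 + j, 21, 16 + j] []) = true := by
  decide +kernel


end Cfsg.H6.HNR.M
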