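import Cfsg.Agent.H6.HNR.M.D0

set_option autoImplicit false
set_option maxRecDepth 100000
set_option Elab.async false

namespace Cfsg.H6.HNR.M

theorem x6 : (mq [22, 22, 22] [] && (List.range 6).all fun j => mq [22, 16 + j, 22, 16 + j] []) = true := by
  decide +kernel

theorem x7 : (mq [23, 23, 23] [] && (List.range 7).all fun j => mq [23, 16 + j, 23, 16 + j] []) = true := by
  decide +kernel

theorem x8 : (mq [24, 24, 24] [] && (List.range 8).all fun j => mq [24, 16 + j, 24, 16 + j] []) = true := by
  decide +kernel

theorem x9 : (mq [25, 25, 25] [] && (List.range 9).all fun j => mq [25, 16 + j, 25, 16 + j] []) = true := by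
  decide +kernel

theorem lb : allR (HN.M.P.lab1 1 code (nthN [0,5,8,9,13]) vec tab 120 5) 0 120 = true := by
  decide +kernel


end Cfsg.H6.HNR.M
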