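import Cfsg.Agent.H6.HNR.M.B0
import Cfsg.Agent.H6.HNR.M.B1
import Cfsg.Agent.H6.HNR.M.B2
import Cfsg.Agent.H6.HNR.M.B3
import Cfsg.Agent.H6.HNR.M.B4
import Cfsg.Agent.H6.HN.Main

set_option autoImplicit false
set_option maxRecDepth 100000
set_option Elab.async false

namespace Cfsg.H6.HNR.M

open HN.M (P ok μ hμ)

theorem sel_lt {p y a b : ℕ} (h : y < p) : sel p y a b = a := by
  rw [sel, show Nat.ble p y = false from Bool.eq_false_iff.mpr fun e => by
    rw [Nat.ble_eq] at e; omega]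

theorem base : ∀ x, 1 ≤ x → x < 8 → μ (HN.ev x) = P.mat code x := fun x h1 h2 => by
  rw [hμ x h1 h2, Par.mat, Par.mat, show code x = HN.M.code x from sel_lt h2]

theorem mem : Mem μ (P.mat code) 26 :=
  (Par.mem_step ok (by decide) (Par.mem_step ok (by decide) (Par.mem_step ok (by decide) (Par.mem_step ok (by decide) (Par.mem_step ok (by decide) (Par.mem_step ok (by decide) (Par.mem_step ok (by decide) (Par.mem_step ok (by decide) (Par.mem_step ok (by decide) (Par.mem_step ok (by decide) (Par.mem_step ok (by decide) (Par.mem_step ok (by decide) (Par.mem_step ok (by decide) (Par.mem_step ok (by decide) (Par.mem_step ok (by decide) (Par.mem_step ok (by decide) (Par.mem_step ok (by decide) (Par.mem_step ok (by decide) (Mem.base base) (by decide +kernel) d8) (by decide +kernel) d9) (by decide +kernel) d10) (by decide +kernel) d11) (by decide +kernel) d12) (by decide +kernel) d13) (by decide +kernel) d14) (by decide +kernel)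 d15) (by decide +kernel) d16) (by decide +kernel) d17) (by decide +kernel) d18) (by decide +kernel) d19) (by decide +kernel) d20) (by decide +kernel) d21) (by decide +kernel) d22) (by decide +kernel) d23) (by decide +kernel) d24) (by decide +kernel) d25)

/-- The elements of the letters. -/
noncomputable def mv : ℕ → Spor.HN := ev2 μ (P.mat code)

theorem mq_spec {u v : List ℕ} (h : mq u v = true) : evL mv u = evL mv v :=
  Par.weq_spec ok (by decide) HN.main.2 mem h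

theorem mv_base {w : List ℕ} (h : inR 8 w = true) : evL mv w = evL HN.ev w :=
  evL_congr fun x hx => HN.main.2 (by
    have := inR_spec h x hx
    rw [base x this.1 this.2]; exact mem.ev2 x this.1 (by omega))

theorem mv_def {m : ℕ} {w : List ℕ} (h : P.weq code (m + 1) w [m] = true) (hm : m < 26) :
    mv m = evL mv w := by
  have h1 : ∀ u, inR (m + 1) u = true → inR 26 u = true := fun u hu =>
    List.all_eq_true.mpr fun x hx => by
      have := inR_spec hu x hx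
      simp only [Bool.and_eq_true, Nat.ble_eq, Nat.blt_eq]; omega
  unfold Par.weq at h
  simp only [Bool.and_eq_true] at h
  rw [mq_spec (u := w) (v := [m]) (by
    unfold mq Par.weq
    rw [h1 _ h.1.1, h1 _ h.1.2, h.2]; rfl), evL_singleton]

theorem lab : Lab (rAct μ (Fin 1)) (evS mv sN) (fun p => P.dec 1 (vec p)) N.img 120 5 := by
  have h := Par.lab ok mem (by decide +kernel) (allR_range lb (by norm_num : 0 + 120 = 120))
  refine ⟨fun x h1 h2 p hp => ?_, h.inj⟩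
  have e : evS mv sN x = ev2 μ (P.mat code) (nthN [0,5,8,9,13] x) ∧ tab x p = N.img x p := by
    refine ⟨?_, congrArg (fun y => N.img y p) (sel_lt h2)⟩
    interval_cases x <;> exact evL_singleton _ _
  rw [e.1, ← e.2]
  exact h.act x h1 h2 p hp

theorem rel2 : ∀ r ∈ ([[1,2,1,4,1,3,1,2,1,4,1,3], [1,2,4,1,4,3,1,2,4,1,4,3], [1,2,4,2,4,2,4,1,2,4,2,4,2,4], [1,4,2,2,2,2,4,1,4,2,2,2,2,4], [1,2,2,1,3,4,1,4,1,2,2,1,3,4,1,4], [1,2,2,4,1,2,2,4,1,2,2,4,1,2,2,4], [1,3,3,3,4,2,2,4,1,3,3,3,4,2,2,4], [1,2,1,3,4,3,4,3,3,1,2,1,3,4,3,4,3,3], [1,2,4,2,4,3,3,3,4,1,2,4,2,4,3,3,3,4], [1,3,4,1,3,4,1,3,4,1,3,4,1,3,4,1,3,4], [1,3,4,3,4,3,4,1,4,1,3,4,3,4,3,4,1,4], [1,2,1,3,3,4,2,1,2,1,3,3,4,2,1,2,1,3,3,4,2], [1,2,2,1,3,4,1,2,2,1,3,4,1,2,2,1,3,4,1,2,2,1,3,4], [1,2,2,2,4,1,3,4,1,2,2,2,4,1,3,4,1,2,2,2,4,1,3,4], [1,2,1,2,2,1,2,2,4,1,2,1,2,2,1,2,2,4,1,2,1,2,2,1,2,2,4]] : List (List ℕ)), evL mv (subst sN r) = 1 ∨ evL mv (subst sN r) = evL mv [10] :=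
  (List.forall_mem_cons.mpr ⟨Or.inl (mq_spec r0), (List.forall_mem_cons.mpr ⟨Or.inl (mq_spec r1), (List.forall_mem_cons.mpr ⟨Or.inl (mq_spec r2), (List.forall_mem_cons.mpr ⟨Or.inl (mq_spec r3), (List.forall_mem_cons.mpr ⟨Or.inl (mq_spec r4), (List.forall_mem_cons.mpr ⟨Or.inl (mq_spec r5), (List.forall_mem_cons.mpr ⟨Or.inl (mq_spec r6), (List.forall_mem_cons.mpr ⟨Or.inl (mq_spec r7), (List.forall_mem_cons.mpr ⟨Or.inr (mq_spec r8), (List.forall_mem_cons.mpr ⟨Or.inr (mq_spec r9), (List.forall_mem_cons.mpr ⟨Or.inl (mq_spec r10), (List.forall_mem_cons.mpr ⟨Or.inl (mq_spec r11), (List.forall_mem_cons.mpr ⟨Or.inl (mq_spec r12), (List.forall_mem_cons.mpr ⟨Or.inl (mq_spec r13), (List.forall_mem_cons.mpr ⟨Or.inr (mq_spec r14), (by simp)⟩)⟩)⟩)⟩)⟩)⟩)⟩)⟩)⟩)⟩)⟩)⟩)⟩)⟩)⟩)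

theorem carm (i : ℕ) (hi : i < 10) : mv (16 + i) ^ 3 = 1 ∧ ∀ j < i, (mv (16 + i) * mv (16 + j)) ^ 2 = 1 := by
  have h : (mq [16 + i, 16 + i, 16 + i] [] &&
      (List.range i).all fun j => mq [16 + i, 16 + j, 16 + i, 16 + j] []) = true := by
    interval_cases i
    exacts [x0, x1, x2, x3, x4, x5, x6, x7, x8, x9]
  simp only [Bool.and_eq_true, List.all_eq_true, List.mem_range] at h
  exact ⟨by simpa [evL, pow_succ, mul_assoc] using mq_spec h.1,
    fun j hj => by simpa [evL, pow_succ, mul_assoc] using mq_spec (h.2 j hj)⟩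


end Cfsg.H6.HNR.M
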